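/- C7 tower: rigidity of quadratic elements in the tensor-induced group (slots RIG1). -/
import Cfsg.Agent.H60.WrKit1

set_option autoImplicit false

namespace H89.Wr
open Cfsg Cfsg.Geo Matrix H19 H60.Wr Module
open scoped MatrixGroups

section rank
variable {F : Type*} [Field F] {ι : Type} [Fintype ι] [DecidableEq ι]

theorem rank_add_idem {e f : Matrix ι ι F} (he : e * e = e) (hf : f * f = f) (h1 : e * f = 0)
    (h2 : f * e = 0) : (e + f).rank = e.rank + f.rank := by
  have a : LinearMap.range (e + f).mulVecLin = LinearMap.range e.mulVecLin ⊔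
      LinearMap.range f.mulVecLin := by
    refine le_antisymm ?_ (sup_le ?_ ?_)
    · rintro _ ⟨v, rfl⟩
      rw [mulVecLin_apply, add_mulVec]
      exact Submodule.add_mem_sup ⟨v, rfl⟩ ⟨v, rfl⟩
    · rintro _ ⟨v, rfl⟩
      exact ⟨e *ᵥ v, by simp only [mulVecLin_apply, mulVec_mulVec, add_mul, he, h2, add_zero]⟩
    · rintro _ ⟨v, rfl⟩
      exact ⟨f *ᵥ v, by simp only [mulVecLin_apply, mulVec_mulVec, add_mul, hf, h1, zero_add]⟩
  have b : LinearMap.range e.mulVecLin ⊓ LinearMap.range f.mulVecLin = ⊥ := by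
    rw [eq_bot_iff]
    rintro _ ⟨⟨u, rfl⟩, v, hv⟩
    have := congrArg (e *ᵥ ·) hv
    simp only [mulVecLin_apply, mulVec_mulVec, h1, he, zero_mulVec] at this
    exact this.symm
  have c := Submodule.finrank_sup_add_finrank_inf_eq (LinearMap.range e.mulVecLin)
    (LinearMap.range f.mulVecLin)
  rw [b, finrank_bot, add_zero, ← a] at c
  exact c

theorem rank_sum {κ : Type*} [DecidableEq κ] (E : κ → Matrix ι ι F)
    (h : ∀ a b, E a * E b = if a = b then E a else 0) (S : Finset κ) :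
    (∑ a ∈ S, E a).rank = ∑ a ∈ S, (E a).rank := by
  induction S using Finset.induction_on with
  | empty => simp
  | insert x s hx ih =>
    rw [Finset.sum_insert hx, Finset.sum_insert hx, ← ih]
    refine rank_add_idem (by simp [h]) ?_ ?_ ?_
    · rw [Finset.sum_mul_sum]
      exact Finset.sum_congr rfl fun a ha => by simp [h, ha]
    · simp [Finset.mul_sum, h, hx]
    · simp [Finset.sum_mul, h, hx]

/-- Ranks of sums of diagonal matrix units. -/
theorem rank_units {κ : Type*} [Fintype κ] [DecidableEq κ] (U : κ → κ → Matrix ι ι F)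
    (h : ∀ a b c d, U a b * U c d = if b = c then U a d else 0) (h1 : ∑ a, U a a = 1)
    (S : Finset κ) : (∑ a ∈ S, U a a).rank * Fintype.card κ = S.card * Fintype.card ι := by
  have e : ∀ a b, (U a a).rank = (U b b).rank := by
    have : ∀ a b, (U a a).rank ≤ (U b b).rank := fun a b => by
      rw [show U a a = U a b * U b b * U b a by simp [h]]
      exact (rank_mul_le_left _ _).trans (rank_mul_le_right _ _)
    exact fun a b => le_antisymm (this a b) (this b a)
  have e2 := rank_sum (fun a => U a a) fun a b => by rw [h]; split_ifs with c <;> simp [*]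
  rw [← rank_one (R := F) (n := ι), ← h1, e2, e2, Finset.sum_mul, Finset.card_eq_sum_ones, Finset.sum_mul]
  exact Finset.sum_congr rfl fun a _ => by
    rw [Finset.sum_congr rfl fun b _ => e b a]; simp [mul_comm]

theorem mul_eq_zero_of_rank {n X D : Matrix ι ι F} (h : n.rank ≤ (n * X).rank)
    (h0 : D * (n * X) = 0) : D * n = 0 := by
  have e : LinearMap.range (n * X).mulVecLin = LinearMap.range n.mulVecLin :=
    Submodule.eq_of_le_of_finrank_le (by rw [mulVecLin_mul]; exact LinearMap.range_comp_le_range _ _) h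
  refine ext_of_mulVec_single fun v => ?_
  obtain ⟨u, hu⟩ : n *ᵥ Pi.single v 1 ∈ LinearMap.range (n * X).mulVecLin := e ▸ ⟨_, rfl⟩
  rw [← mulVec_mulVec, ← hu, mulVecLin_apply, mulVec_mulVec, h0, zero_mulVec, zero_mulVec]

theorem rank_cj (g : GL ι F) (X : Matrix ι ι F) : (cj g X).rank = X.rank := by
  have : ∀ (g : GL ι F) (X : Matrix ι ι F), (cj g X).rank ≤ X.rank := fun g X =>
    (rank_mul_le_left _ _).trans (rank_mul_le_right _ _)
  exact le_antisymm (this _ _) (by simpa using this g⁻¹ (cj g X))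

end rank

variable {F : Type*} [Field F] {k t : ℕ} {i j : Fin t}

theorem rank_em_ro (i : Fin t) {x φ : Fin k → F} (hx : x ≠ 0) (hφ : φ ≠ 0) :
    (em i (ro x φ) : EE k t F).rank = k ^ (t - 1) := by
  have key : ∀ x φ y ψ : Fin k → F, y ≠ 0 → ψ ≠ 0 →
      (em i (ro x φ) : EE k t F).rank ≤ (em i (ro y ψ) : EE k t F).rank := fun x φ y ψ hy hψ => by
    obtain ⟨χ, h1⟩ := exists_dot_one hy
    obtain ⟨z, h2⟩ := exists_dot_one' hψ
    rw [show ro x φ = ro x χ * ro y ψ * ro z φ by simp [ro_mul_ro, h1, h2], map_mul, map_mul]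
    exact (rank_mul_le_left _ _).trans (rank_mul_le_right _ _)
  obtain ⟨r, -⟩ := Function.ne_iff.1 hx
  have h := rank_units (fun a b => (em i (ro (Pi.single a 1) (Pi.single b (1 : F))) : EE k t F))
    (fun a b c d => by rw [← map_mul, ro_mul_ro]; split_ifs with e <;> simp [e, Pi.single_apply])
    (by rw [← map_sum, sum_ro, map_one]) {r}
  have h0 : (Pi.single r 1 : Fin k → F) ≠ 0 := by simp
  rw [Finset.sum_singleton, ← le_antisymm (key x φ _ _ h0 h0) (key _ _ x φ hx hφ)] at h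
  obtain ⟨s, rfl⟩ : ∃ s, t = s + 1 := ⟨t - 1, by have := i.pos; omega⟩
  simp only [Fintype.card_fin, Finset.card_singleton, one_mul, Fintype.card_fun, pow_succ] at h
  exact Nat.eq_of_mul_eq_mul_right r.pos h

theorem exists_notMem_pair (hk : 3 ≤ k) (x y : Fin k → F) : ∃ z, z ∉ Submodule.span F {x, y} := by
  classical
  by_contra! h
  have h2 := finrank_span_le_card (R := F) ({x, y} : Set _)
  rw [show Submodule.span F {x, y} = ⊤ from eq_top_iff.2 fun z _ => h z, finrank_top,
    finrank_fin_fun] at h2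
  have : ({x, y} : Set (Fin k → F)).toFinset.card ≤ 2 := by simpa using Finset.card_le_two
  omega

theorem rig_two (hk : 3 ≤ k) {β : Mk k F} {γ : EE k t F} (hγ : InC i γ) (hβ : β * β = 0)
    (h2 : (1 + γ) * (1 + γ) = 1) (hr : (em i β * (1 + γ) + γ).rank ≤ k ^ (t - 1)) :
    β = 0 ∨ γ = 0 := by
  by_contra! h0
  obtain ⟨x, hx⟩ : ∃ x, β *ᵥ x ≠ 0 := by
    by_contra! h; exact h0.1 (ext_of_mulVec_single fun v => by rw [h, zero_mulVec])
  have hx0 : x ≠ 0 := by rintro rfl; simp at hx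
  obtain ⟨χ, c1, c2⟩ := exists_dot_of_notMem (x := β *ᵥ x) (J := F ∙ x) fun h => by
    obtain ⟨s, hs⟩ := Submodule.mem_span_singleton.1 h
    have := congrArg (β *ᵥ ·) hs
    simp only [mulVec_smul, mulVec_mulVec, hβ, zero_mulVec, smul_eq_zero] at this
    exact hx (this.elim (fun e => by rw [← hs, e, zero_smul]) id)
  replace c2 := c2 x (Submodule.mem_span_singleton_self x)
  obtain ⟨z, hz⟩ := exists_notMem_pair hk x (β *ᵥ x)
  obtain ⟨ψ, p1, p2⟩ := exists_dot_of_notMem hz
  have p3 := p2 x (Submodule.subset_span (by simp))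
  have p4 := p2 (β *ᵥ x) (Submodule.subset_span (by simp))
  obtain ⟨v, v1, v2⟩ := exists_dot_of_notMem (x := ψ) (J := F ∙ (ψ ᵥ* β)) fun h => by
    obtain ⟨s, hs⟩ := Submodule.mem_span_singleton.1 h
    have := congrArg (· ᵥ* β) hs
    simp only [smul_vecMul, vecMul_vecMul, hβ, vecMul_zero, smul_zero] at this
    rw [← this, smul_zero] at hs
    simp [← hs] at p1
  replace v2 := v2 _ (Submodule.mem_span_singleton_self _)
  rw [dotProduct_comm] at v1 v2
  rw [← dotProduct_mulVec] at v2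
  have key : ∀ a φ b φ' : Fin k → F, em i (ro a φ) * ((em i β * (1 + γ) + γ) * em i (ro b φ')) =
      (φ ⬝ᵥ β *ᵥ b) • (em i (ro a φ') * (1 + γ)) + (φ ⬝ᵥ b) • (em i (ro a φ') * γ) := by
    intro a φ b φ'
    rw [← mul_assoc, ct_spec, ct_add, ct_em_mul (InC.one.add hγ), ct_of_inC hγ, mul_add,
      mul_smul_comm, mul_smul_comm]
  have e1 := mul_eq_zero_of_rank (n := em i β * (1 + γ) + γ) (X := em i (ro x x))
    (D := em i (ro x ψ)) (hr.trans (by
      have := key x χ x x
      rw [c1, c2, one_smul, zero_smul, add_zero] at this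
      rw [← rank_em_ro i hx0 hx0]
      conv_lhs => rw [← mul_one (em i (ro x x)), ← h2, ← mul_assoc, ← this]
      exact (rank_mul_le_left _ _).trans (rank_mul_le_right _ _))) (by rw [key, p3, p4]; simp)
  have e2 := key x ψ v x
  rw [← mul_assoc, e1, zero_mul, v1, v2, zero_smul, one_smul, zero_add] at e2
  exact (T2 hγ e2.symm).elim (ro_ne_zero hx0 hx0) h0.2

universe u

theorem jobRigP : JobRigP.{u} := by
  intro F _ _ k t y i b c hc hy h1 h2
  by_contra! h0
  have hn : Nontrivial (EE k t F) := not_subsingleton_iff_nontrivial.1 fun h =>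
    h0.2 ⟨0, Subsingleton.elim _ _⟩
  have h3 : em i (b * b) * (c * c) - (2 : F) • (em i b * c) + em i 1 * 1 = 0 := by
    rw [← h1, hy, map_mul, mul_assoc, ← mul_assoc (em i b) c c, hc b, map_one, two_smul]
    simp only [← hc b, mul_sub, sub_mul, mul_assoc, mul_one, one_mul, ← mul_assoc c (em i b) c]
    abel
  by_cases e : (2 : F) = 0
  · obtain ⟨hk, hr⟩ := h2.resolve_left (not_not.2 e)
    have : CharP F 2 := CharTwo.of_one_ne_zero_of_two_eq_zero one_ne_zero e
    have h4 : em i (b * b) * (c * c) = (-1 : F) • 1 := by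
      rw [e, zero_smul, sub_zero, map_one, one_mul] at h3
      rw [neg_one_smul]; exact eq_neg_of_add_eq_zero_left h3
    obtain ⟨⟨μ, hμ⟩, -⟩ := sc_of_em_mul (hc.mul hc) (neg_ne_zero.2 one_ne_zero) h4
    obtain ⟨s, hs⟩ := (frobeniusEquiv F 2).surjective μ
    rw [frobeniusEquiv_apply, frobenius_def, pow_two] at hs
    rw [hμ, map_smul, map_one, smul_mul_assoc, one_mul, CharTwo.neg_eq, one_smul] at h4
    have hs0 : s ≠ 0 := by
      rintro rfl
      rw [← hs, mul_zero, zero_smul] at h4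
      exact zero_ne_one h4
    rcases rig_two (i := i) hk (β := s⁻¹ • b - 1) (γ := s • c - 1) ((hc.smul s).sub InC.one) (by
      rw [sub_mul, mul_sub, smul_mul_smul_comm, hμ, smul_smul, ← hs, mul_one, one_mul, sub_sub,
        add_sub, ← two_smul F, e, zero_smul, zero_sub, sub_neg_eq_add,
        show s⁻¹ * s⁻¹ * (s * s) = 1 by field_simp, one_smul, ← two_smul F, e, zero_smul])
      (by rw [add_sub_cancel, smul_mul_smul_comm, hs, h4]) (by
        rw [add_sub_cancel, map_sub, map_one, map_smul, sub_mul, smul_mul_smul_comm,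
          inv_mul_cancel₀ hs0, one_smul, one_mul, sub_add_sub_cancel, ← hy]
        exact hr) with h | h
    · exact h0.1 (Sc.of_smul (inv_ne_zero hs0) (sub_eq_zero.1 h ▸ Sc.one))
    · exact h0.2 (Sc.of_smul hs0 (sub_eq_zero.1 h ▸ Sc.one))
  · obtain ⟨l, l1, l2⟩ := exists_fun_of_not_sc h0.1
    obtain ⟨L, -, hL⟩ := exists_lam (t := t) i l
    have h4 := congrArg L h3
    rw [map_add, map_sub, map_smul, hL _ _ (hc.mul hc), hL _ _ hc, hL _ _ InC.one, l1, l2, zero_smul,
      add_zero, one_smul, map_zero, sub_eq_zero] at h4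
    have h5 : l (b * b) • c = (2 : F) • 1 := by
      have : (y : EE k t F) * (l (b * b) • c) = (y : EE k t F) * ((2 : F) • 1) := by
        rw [hy, mul_assoc, mul_smul_comm _ c, h4, mul_smul_comm, mul_smul_comm, mul_one]
      exact (Units.mul_right_inj y).1 this
    refine h0.2 (Sc.of_smul (r := l (b * b)) (fun e' => ?_) ⟨2, h5⟩)
    rw [e', zero_smul] at h5
    exact one_ne_zero ((smul_eq_zero.1 h5.symm).resolve_left e)

theorem Nm.mul {g h : GG k t F} {l : Fin t} (h1 : Nm h i j) (h2 : Nm g j l) : Nm (g * h) i l :=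
  fun a => by
    obtain ⟨b, hb⟩ := h1 a
    rw [cj_mul, hb]; exact h2 b

theorem Nm.eq (hk : 2 ≤ k) (h : Nm (1 : GG k t F) i j) : i = j := by
  by_contra e
  have : Nontrivial (Fin k) := Fin.nontrivial_iff_two_le.2 hk
  refine not_commute_of_two_le (F := F) (κ := Fin k) fun x y => ?_
  have h1 := h x
  rw [cj_one] at h1
  obtain ⟨c, rfl⟩ := sc_em.1 ((InA.em i x).sc_of_ne h1 e)
  simp

theorem exists_nm {g : GG k t F} (hg : g ∈ TT k t F) (i : Fin t) : ∃ j, Nm g i j := by
  induction hg using Subgroup.closure_induction'' generalizing i with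
  | one => exact ⟨i, fun a => ⟨a, cj_one _⟩⟩
  | mem g h =>
    rcases h with ⟨a, h⟩ | ⟨σ, h⟩
    · rw [show g = pureGL a from Units.ext (Matrix.ext h)]
      exact ⟨i, fun x => ⟨_, cj_pureGL_tl a i x⟩⟩
    · rw [show g = fperm F k σ from Units.ext (Matrix.ext h)]
      exact ⟨σ i, fun x => ⟨_, cj_fperm_tl σ i x⟩⟩
  | inv_mem g h =>
    rcases h with ⟨a, h⟩ | ⟨σ, h⟩
    · rw [show g = pureGL a from Units.ext (Matrix.ext h)]
      exact ⟨i, fun x => ⟨cj (a i)⁻¹ x, by
        rw [← cj_cj_inv (a i) x, ← cj_pureGL_tl, cj_inv_cj, cj_inv_cj]⟩⟩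
    · rw [show g = fperm F k σ from Units.ext (Matrix.ext h)]
      exact ⟨σ⁻¹ i, fun x => ⟨x, by
        have := cj_fperm_tl σ (σ⁻¹ i) x
        rw [Equiv.Perm.coe_inv, Equiv.apply_symm_apply] at this
        rw [← this, cj_inv_cj]; rfl⟩⟩
  | mul x y _ _ hx hy =>
    obtain ⟨j, h1⟩ := hy i
    obtain ⟨l, h2⟩ := hx j
    exact ⟨l, Nm.mul h1 h2⟩

theorem exists_eq_of_nm (hk : 0 < k) {g : GG k t F} (h : Nm g i i) :
    ∃ b c, InC i c ∧ (g : EE k t F) = em i b * c := by
  have : Nonempty (Fin k) := ⟨⟨0, hk⟩⟩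
  obtain ⟨a, ha⟩ := exists_cj_of_range_le (tl F k i) ((cj g).toAlgHom.comp (tl F k i)) fun x => by
    obtain ⟨b, hb⟩ := h x; exact ⟨b, hb.symm⟩
  refine ⟨a, em i ((a⁻¹ : GL (Fin k) F) : Mk k F) * g, fun x => ?_, by
    rw [← mul_assoc, ← map_mul, Units.mul_inv, map_one, one_mul]⟩
  have h1 : (g : EE k t F) * em i x = em i (cj a x) * g := (cj_eq_iff g _ _).1 (ha x)
  rw [mul_assoc, h1, ← mul_assoc, ← mul_assoc, ← map_mul, ← map_mul, cj_apply,
    ← mul_assoc, ← mul_assoc, Units.inv_mul, one_mul]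

/-- A quadratic element normalising every factor lies in a factor. -/
theorem inA_of_nm (hk : 0 < k) (ht : 0 < t) {y : GG k t F} (h : ∀ j, Nm y j j)
    (hP : ∀ j b c, InC j c → (y : EE k t F) = em j b * c → Sc b ∨ Sc c) :
    ∃ j, InA j (y : EE k t F) := by
  by_contra! h0
  refine h0 ⟨0, ht⟩ ((sc_of_inC fun j => ?_).inA _)
  obtain ⟨b, c, h1, h2⟩ := exists_eq_of_nm hk (h j)
  rcases hP j b c h1 h2 with e | e
  · exact h2 ▸ ((sc_em.2 e).inC j).mul h1
  · exact (h0 j (h2 ▸ (InA.em j b).mul (e.inA j))).elim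

theorem jobRigOdd : JobRigOdd.{u} := by
  intro F _ _ k t h2 hk ht y hy h1
  refine inA_of_nm (by omega) ht (fun i => ?_) fun j b c hc e =>
    jobRigP F k t y j b c hc e h1 (Or.inl h2)
  obtain ⟨j, hj⟩ := exists_nm hy i
  obtain ⟨l, hl⟩ := exists_nm (inv_mem hy) i
  by_contra h0
  have e1 : i ≠ j := by rintro rfl; exact h0 hj
  have e2 : i ≠ l := by rintro rfl; exact e1 (Nm.eq hk (mul_inv_cancel y ▸ Nm.mul hl hj))
  have e3 : j ≠ l := by
    rintro rfl
    obtain ⟨m, hm⟩ := exists_nm hy j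
    obtain rfl := Nm.eq hk (mul_inv_cancel y ▸ Nm.mul hl hm)
    have a1 : ∀ n : ℕ, Nm ((y * y) ^ n) i i := fun n => by
      induction n with
      | zero => exact fun a => ⟨a, by simp⟩
      | succ n ih => rw [pow_succ]; exact Nm.mul (Nm.mul hj hm) ih
    have a2 : ∀ n : ℕ, (y : EE k t F) ^ n = 1 + (n : F) • ((y : EE k t F) - 1) := fun n => by
      induction n with
      | zero => simp
      | succ n ih =>
        rw [pow_succ, ih, Nat.cast_succ, add_smul, one_smul, add_mul, smul_mul_assoc,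
          show ((y : EE k t F) - 1) * y = y - 1 by rw [← sub_eq_zero, ← h1]; noncomm_ring]
        abel_nf
        simp
    obtain ⟨n, hn⟩ : Odd (ringChar F) := by
      have := Fintype.ofFinite F
      refine (CharP.char_is_prime F (ringChar F)).odd_of_ne_two fun e => h2 ?_
      exact_mod_cast (e ▸ ringChar.Nat.cast_ringChar : ((2 : ℕ) : F) = 0)
    refine h0 (?_ : Nm y i i)
    convert a1 (n + 1)
    apply Units.ext
    rw [← pow_two, ← pow_mul, Units.val_pow_eq_pow_val, a2, show 2 * (n + 1) = ringChar F + 1 by omega,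
      Nat.cast_succ, ringChar.Nat.cast_ringChar]
    simp
  let r : Fin k := ⟨0, by omega⟩
  let ε : Mk k F := ro (Pi.single r 1) (Pi.single r 1)
  have b1 : (1 - ε) * ε = 0 := by simp [ε, sub_mul, ro_mul_ro]
  have b2 : ε ≠ 0 := ro_ne_zero (by simp) (by simp)
  have b3 : 1 - ε ≠ 0 := fun e => by
    simpa [ε, r, vecMulVec_apply, Pi.single_apply] using congrFun (congrFun e ⟨1, hk⟩) ⟨1, hk⟩
  obtain ⟨a, ha⟩ := hj ε
  obtain ⟨a', ha'⟩ := hl ε
  have c1 : em i (1 - ε) * ((y⁻¹ : GG k t F) : EE k t F) * em j a = 0 := by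
    rw [← ha, cj_apply, ← mul_assoc, ← mul_assoc, mul_assoc _ _ (y : EE k t F), Units.inv_mul, mul_one,
      ← map_mul, b1, map_zero, zero_mul]
  have c2 : em i (1 - ε) * (y : EE k t F) * em l a' = 0 := by
    rw [← ha', cj_apply, ← mul_assoc, ← mul_assoc, mul_assoc _ (y : EE k t F), Units.mul_inv, mul_one,
      ← map_mul, b1, map_zero, zero_mul]
  have c3 : (y : EE k t F) + ((y⁻¹ : GG k t F) : EE k t F) = (2 : F) • 1 := by
    refine (Units.mul_right_inj y).1 ?_
    rw [mul_add, Units.mul_inv, mul_smul_comm, two_smul, ← sub_eq_zero, ← h1]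
    noncomm_ring
  have c4 : (2 : F) • (em i (1 - ε) * (em j a * em l a') : EE k t F) = 0 := by
    rw [← mul_smul_comm, ← one_mul (em j a * em l a'), ← smul_mul_assoc, ← c3, add_mul, mul_add,
      ← mul_assoc, ← mul_assoc _ _ (em j a * _), ← mul_assoc _ (em j a) (em l a'),
      ← mul_assoc _ (em j a) (em l a'), c1, mul_assoc _ (em j a), em_comm e3, ← mul_assoc, c2]
    simp
  rcases T2 ((InC.em e1 a).mul (InC.em e2 a')) ((smul_eq_zero.1 c4).resolve_left h2) with h | h
  · exact b3 h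
  rcases T2 (InC.em e3 a') h with h | h
  · rw [h, map_zero, map_eq_zero_iff _ (cj y).injective] at ha
    exact b2 (em_eq_zero.1 ha)
  · rw [h, map_eq_zero_iff _ (cj y⁻¹).injective] at ha'
    exact b2 (em_eq_zero.1 ha')

end H89.Wr
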