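/- C7 tower: rigidity in characteristic two (slot RIG2). -/
import Cfsg.Agent.H60.WrKit2
import Cfsg.Agent.H89.WrRig1

set_option autoImplicit false

namespace H89.Wr
open Cfsg Cfsg.Geo Matrix H19 H60.Wr Module
open scoped MatrixGroups

variable {F : Type*} [Field F] {k t : ℕ}

/-- Dual bases. -/
def Dual2 (e η : Fin k → Fin k → F) : Prop := ∀ r s, η r ⬝ᵥ e s = if r = s then 1 else 0

theorem Dual2.sum {e η : Fin k → Fin k → F} (h : Dual2 e η) : ∑ s, ro (e s) (η s) = 1 := by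
  have h1 : Matrix.of η * (Matrix.of e)ᵀ = 1 := by
    ext r s; rw [one_apply, ← h r s]; rfl
  rw [← mul_eq_one_comm.1 h1]
  ext r s; simp [Matrix.sum_apply, vecMulVec_apply, mul_apply]

theorem exists_dual {w φ : Fin 3 → F} (hw : w ≠ 0) (hφ : φ ≠ 0) (h : φ ⬝ᵥ w = 0) :
    ∃ e η : Fin 3 → Fin 3 → F, Dual2 e η ∧ e 0 = w ∧ η 2 = φ := by
  obtain ⟨z, hz⟩ := exists_dot_one' hφ
  obtain ⟨χ, hχ⟩ := exists_dot_one hw
  obtain ⟨ψ, h1, h2⟩ : ∃ ψ : Fin 3 → F, ψ ⬝ᵥ w = 1 ∧ ψ ⬝ᵥ z = 0 :=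
    ⟨χ - (χ ⬝ᵥ z) • φ, by simp [h, hχ], by simp [hz]⟩
  refine ⟨![w, crossProduct ψ φ, z], ![ψ, crossProduct w z, φ], fun r s => ?_, rfl, rfl⟩
  have h3 : crossProduct w z ⬝ᵥ w = 0 := by rw [dotProduct_comm, dot_self_cross]
  have h4 : crossProduct w z ⬝ᵥ z = 0 := by rw [dotProduct_comm, dot_cross_self]
  have h5 : crossProduct w z ⬝ᵥ crossProduct ψ φ = 1 := by
    rw [cross_dot_cross, dotProduct_comm w, dotProduct_comm z, dotProduct_comm w, h, h1, hz]; simp
  fin_cases r <;> fin_cases s <;> simp [h, h1, h2, h3, h4, h5, hz]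

/-- The frame of an involution interchanging two factors. -/
structure Fr (y : GG k t F) (u v : Fin k → Fin k → EE k t F) : Prop where
  uu : ∀ a b c d, u a b * u c d = if b = c then u a d else 0
  vv : ∀ a b c d, v a b * v c d = if b = c then v a d else 0
  su : ∑ a, u a a = 1
  sv : ∑ a, v a a = 1
  vu : ∀ a b c d, v a b * u c d = u c d * v a b
  yu : ∀ a b, (y : EE k t F) * u a b = v a b * y
  yv : ∀ a b, (y : EE k t F) * v a b = u a b * y
  ne : ∀ a b c d, u a b * v c d ≠ 0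

theorem exists_fr {y : GG k t F} (hy : y * y = 1) {p q : Fin t} (hpq : p ≠ q) (h : Nm y p q)
    {e η : Fin k → Fin k → F} (hd : Dual2 e η) :
    Fr y (fun a b => em p (ro (e a) (η b))) fun a b => cj y (em p (ro (e a) (η b))) := by
  have uu : ∀ a b c d, (em p (ro (e a) (η b)) * em p (ro (e c) (η d)) : EE k t F) =
      if b = c then em p (ro (e a) (η d)) else 0 := fun a b c d => by
    rw [← map_mul, ro_mul_ro, hd]; split_ifs <;> simp
  have su : ∑ a, (em p (ro (e a) (η a)) : EE k t F) = 1 := by rw [← map_sum, hd.sum, map_one]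
  have ne : ∀ a b, ro (e a) (η b) ≠ 0 := fun a b => ro_ne_zero
    (fun e' => by simpa [e'] using hd a a) fun e' => by simpa [e'] using hd b b
  refine ⟨uu, fun a b c d => ?_, su, by rw [← map_sum, su, map_one],
    fun a b c d => (((h _).inC hpq) _).symm, fun a b => (cj_mul_self _ _).symm, fun a b => ?_,
    fun a b c d e' => (T2 ((h _).inC hpq) e').elim (ne a b) fun e'' => ne c d ?_⟩
  · rw [← map_mul, uu]; split_ifs <;> simp
  · rw [← cj_eq_iff, ← cj_mul, hy, cj_one]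
  · rwa [map_eq_zero_iff _ (cj y).injective, em_eq_zero] at e''

namespace Fr
variable {y : GG k t F} {u v : Fin k → Fin k → EE k t F} (H : Fr y u v)
include H

theorem mul (a b c d a' b' c' d' : Fin k) : u a b * v c d * (u a' b' * v c' d') =
    if b = a' ∧ d = c' then u a b' * v c d' else 0 := by
  rw [mul_assoc, ← mul_assoc (v c d), H.vu, mul_assoc, ← mul_assoc, H.uu, H.vv]
  split_ifs <;> simp_all

theorem ymul (a b c d : Fin k) : (y : EE k t F) * (u a b * v c d) = u c d * v a b * y := by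
  rw [← mul_assoc, H.yu, mul_assoc, H.yv, ← mul_assoc, H.vu]

theorem fmul (P Q : Fin k × Fin k → Prop) [DecidablePred P] [DecidablePred Q] :
    (∑ x with P x, u x.1 x.1 * v x.2 x.2) * (∑ x with Q x, u x.1 x.1 * v x.2 x.2) =
      ∑ x with P x ∧ Q x, u x.1 x.1 * v x.2 x.2 := by
  rw [Finset.sum_mul_sum, ← Finset.filter_filter, Finset.sum_filter (p := Q)]
  refine Finset.sum_congr rfl fun x _ => ?_
  simp only [H.mul, ← Prod.ext_iff, Finset.sum_ite_eq, Finset.mem_filter, Finset.mem_univ, true_and]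

theorem yf (P : Fin k × Fin k → Prop) [DecidablePred P] :
    (y : EE k t F) * ∑ x with P x, u x.1 x.1 * v x.2 x.2 =
      (∑ x : Fin k × Fin k with P x.swap, u x.1 x.1 * v x.2 x.2) * y := by
  rw [Finset.mul_sum, Finset.sum_mul]
  exact Finset.sum_equiv (Equiv.prodComm _ _) (by simp) fun x _ => H.ymul _ _ _ _

theorem one : ∑ x : Fin k × Fin k, u x.1 x.1 * v x.2 x.2 = 1 := by
  rw [Fintype.sum_prod_type' fun a b => u a a * v b b, ← Finset.sum_mul_sum, H.su, H.sv, mul_one]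

theorem diag (h2 : (2 : F) = 0) (hk : 3 ≤ k) (ht : 0 < t) {n : EE k t F} (hn : (y : EE k t F) = 1 + n)
    (hr : n.rank ≤ k ^ (t - 1)) : k = 3 ∧ (∑ a, u a a * v a a) * n = 0 ∧
      n * (∑ a, u a a * v a a) = 0 ∧
      ∃ π, ∀ Z, n * Z = 0 → Z = n * (π * Z) + (∑ a, u a a * v a a) * Z := by
  obtain rfl : n = y - 1 := by rw [hn, add_sub_cancel_left]
  have hD : ∑ a, u a a * v a a = ∑ x : Fin k × Fin k with x.1 = x.2, u x.1 x.1 * v x.2 x.2 := by
    rw [Finset.sum_filter, Fintype.sum_prod_type]; simp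
  have r1 := rank_units (fun a b : Fin k × Fin k => u a.1 b.1 * v a.2 b.2)
    (fun a b c d => by simp only [H.mul, ← Prod.ext_iff]) H.one
    (Finset.univ.filter fun x => x.1 < x.2)
  have e0 : ∀ P : Fin k × Fin k → Prop, ∀ [DecidablePred P], (∀ x, ¬ P x) →
      ∑ x with P x, u x.1 x.1 * v x.2 x.2 = 0 := fun P _ h => by
    rw [Finset.filter_false_of_mem fun x _ => h x, Finset.sum_empty]
  have e1 := H.yf fun x => x.1 < x.2
  have e2 : ∑ x : Fin k × Fin k with x.1 < x.2, u x.1 x.1 * v x.2 x.2 +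
      ∑ x : Fin k × Fin k with x.swap.1 < x.swap.2, u x.1 x.1 * v x.2 x.2 +
      ∑ x : Fin k × Fin k with x.1 = x.2, u x.1 x.1 * v x.2 x.2 = 1 := by
    simp only [← H.one, Finset.sum_filter, ← Finset.sum_add_distrib]
    refine Finset.sum_congr rfl fun x _ => ?_
    rcases lt_trichotomy x.1 x.2 with h | h | h
    · simp [h, h.ne, h.not_gt]
    · simp [h]
    · simp [h, h.ne', h.not_gt]
  have e3 := H.fmul (fun x => x.1 < x.2) fun x => x.swap.1 < x.swap.2
  have e4 := H.fmul (fun x => x.1 < x.2) fun x => x.1 < x.2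
  have e5 := H.fmul (fun x => x.1 = x.2) fun x => x.swap.1 < x.swap.2
  have e6 := H.fmul (fun x => x.1 = x.2) fun x => x.1 < x.2
  have e7 := H.yf fun x => x.1 = x.2
  rw [e0 (fun x => _ ∧ _) fun x h => h.1.not_gt h.2] at e3
  rw [e0 (fun x => _ ∧ _) fun x h => h.2.ne' h.1] at e5
  rw [e0 (fun x => _ ∧ _) fun x h => h.2.ne h.1] at e6
  simp only [and_self] at e4
  simp only [Prod.fst_swap, Prod.snd_swap, eq_comm (a := Prod.snd _)] at e7
  rw [Fintype.card_product_filter_lt] at r1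
  rw [hD]
  generalize ∑ x : Fin k × Fin k with x.1 < x.2, u x.1 x.1 * v x.2 x.2 = π at *
  generalize ∑ x : Fin k × Fin k with x.swap.1 < x.swap.2, u x.1 x.1 * v x.2 x.2 = π' at *
  generalize ∑ x : Fin k × Fin k with x.1 = x.2, u x.1 x.1 * v x.2 x.2 = D at *
  have r2 : π.rank ≤ (((y : EE k t F) - 1) * π).rank := by
    conv_lhs => rw [show π = -π * (((y : EE k t F) - 1) * π) by
      rw [sub_mul, e1, one_mul, neg_mul, mul_sub, ← mul_assoc, e3, e4, zero_mul, zero_sub, neg_neg]]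
    exact rank_mul_le_right _ _
  have r3 := (r2.trans (rank_mul_le_left _ _)).trans hr
  obtain ⟨s, rfl⟩ : ∃ s, t = s + 1 := ⟨t - 1, by omega⟩
  simp only [Fintype.card_prod, Fintype.card_fin, Fintype.card_fun, pow_succ, Nat.add_sub_cancel,
    ← mul_assoc] at r1 r3 hr
  replace r1 := Nat.eq_of_mul_eq_mul_right (by omega) r1
  have r4 : 0 < k ^ s := by positivity
  obtain rfl : k = 3 := by
    have h3 : k.choose 2 ≤ k := Nat.le_of_mul_le_mul_right (c := k ^ s) (by nlinarith) r4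
    rw [Nat.choose_two_right, Nat.div_le_iff_le_mul_add_pred (by norm_num)] at h3
    obtain ⟨m, rfl⟩ := Nat.exists_eq_add_of_le' hk
    rw [show m + 3 - 1 = m + 2 from rfl] at h3
    have : m = 0 := by nlinarith
    rw [this]
  have e8 : D * ((y : EE 3 (s + 1) F) - 1) = 0 := mul_eq_zero_of_rank
    (hr.trans (le_trans (by norm_num [Nat.choose] at r1; omega) r2))
    (by rw [sub_mul, e1, one_mul, mul_sub, ← mul_assoc, e5, e6, zero_mul, sub_zero])
  refine ⟨rfl, e8, by rw [sub_mul, e7, ← e8, mul_sub, mul_one, one_mul], π, fun Z hZ => ?_⟩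
  rw [sub_mul, one_mul, sub_eq_zero] at hZ
  rw [sub_mul, ← mul_assoc, e1, mul_assoc, hZ, one_mul, sub_eq_add_neg, ← neg_one_smul F,
    show (-1 : F) = 1 by rw [neg_eq_iff_add_eq_zero, one_add_one_eq_two, h2], one_smul, ← add_mul,
    ← add_mul, add_comm π', e2, one_mul]

theorem conj (g : GG k t F) :
    Fr (g * y * g⁻¹) (fun a b => cj g (u a b)) fun a b => cj g (v a b) where
  uu a b c d := by rw [← map_mul, H.uu]; split_ifs <;> simp
  vv a b c d := by rw [← map_mul, H.vv]; split_ifs <;> simp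
  su := by rw [← map_sum, H.su, map_one]
  sv := by rw [← map_sum, H.sv, map_one]
  vu a b c d := by rw [← map_mul, H.vu, map_mul]
  yu a b := by rw [← cj_coe, ← map_mul, H.yu, map_mul]
  yv a b := by rw [← cj_coe, ← map_mul, H.yv, map_mul]
  ne a b c d := by rw [← map_mul, ne_eq, map_eq_zero_iff _ (cj g).injective]; exact H.ne a b c d

end Fr

/-- `X` acts on `im N` and on `ker N / im N` as the same element of `C_i`. -/
def Del (i : Fin t) (N X : EE k t F) : Prop :=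
  ∃ κ, InC i κ ∧ (X - κ) * N = 0 ∧ ∀ Z, N * Z = 0 → ∃ Z', (X - κ) * Z = N * Z'

variable {i : Fin t} {a : Mk k F} {X Y : EE k t F}

theorem Del.one : Del i (em i a) (1 : EE k t F) :=
  ⟨1, InC.one, by simp, fun _ _ => ⟨0, by simp⟩⟩

theorem Del.add_smul (h : Del i (em i a) X) (h' : Del i (em i a) Y) (c : F) :
    Del i (em i a) (X + c • Y) := by
  obtain ⟨κ, h1, h2, h3⟩ := h
  obtain ⟨κ', h4, h5, h6⟩ := h'
  have e : X + c • Y - (κ + c • κ') = X - κ + c • (Y - κ') := by rw [smul_sub]; abel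
  refine ⟨κ + c • κ', h1.add (h4.smul c), by rw [e, add_mul, smul_mul_assoc, h2, h5]; simp,
    fun Z hZ => ?_⟩
  obtain ⟨Z1, e1⟩ := h3 Z hZ
  obtain ⟨Z2, e2⟩ := h6 Z hZ
  exact ⟨Z1 + c • Z2, by rw [e, add_mul, smul_mul_assoc, e1, e2, mul_add, mul_smul_comm]⟩

theorem Del.mul (h : Del i (em i a) X) (h' : Del i (em i a) Y) : Del i (em i a) (X * Y) := by
  obtain ⟨κ, h1, h2, h3⟩ := h
  obtain ⟨κ', h4, h5, h6⟩ := h'
  have e : X * Y - κ * κ' = X * (Y - κ') + (X - κ) * κ' := by noncomm_ring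
  refine ⟨κ * κ', h1.mul h4, by
    rw [e, add_mul, mul_assoc, h5, mul_assoc, ← h4, ← mul_assoc _ (em i a), h2]; simp, fun Z hZ => ?_⟩
  obtain ⟨Z1, e1⟩ := h3 (κ' * Z) (by rw [← mul_assoc, h4, mul_assoc, hZ, mul_zero])
  obtain ⟨Z2, e2⟩ := h6 Z hZ
  rw [sub_mul, sub_eq_zero] at h2
  exact ⟨κ * Z2 + Z1, by
    rw [e, add_mul, mul_assoc, e2, mul_assoc, e1, ← mul_assoc, h2, ← h1, mul_add, mul_assoc]⟩

theorem Del.ker (h : Del i (em i a) X) (ha : a ≠ 0) (h0 : X * em i a = 0) {Z : EE k t F}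
    (hZ : em i a * Z = 0) : ∃ Z', X * Z = em i a * Z' := by
  obtain ⟨κ, h1, h2, h3⟩ := h
  rw [sub_mul, h0, zero_sub, neg_eq_zero, ← h1] at h2
  obtain rfl := (T2 h1 h2).resolve_left ha
  simpa using h3 Z hZ

theorem Del.img {ε : Mk k F} (h : Del i (em i a) X) (h0 : ε ≠ 0) (e1 : ε * ε = ε) (e2 : ε * a = 0)
    {Z : EE k t F} (e3 : a * ε = 0) (e4 : X * em i ε = X * (em i a * Z)) : X * em i a = 0 := by
  obtain ⟨κ, h1, h2, h3⟩ := h
  obtain ⟨Z', e⟩ := h3 (em i ε) (by rw [← map_mul, e3, map_zero])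
  rw [sub_mul, sub_eq_zero] at h2
  rw [sub_mul, e4, ← mul_assoc, h2, ← h1, ← h1] at e
  have := congrArg (em i ε * ·) e
  simp only [mul_sub, ← mul_assoc, ← map_mul, e1, e2, map_zero, zero_mul, zero_sub, neg_eq_zero] at this
  rw [h2, (T2 h1 this).resolve_left h0, zero_mul]

theorem del_of_nm (h2 : (2 : F) = 0) {e η : Fin 3 → Fin 3 → F} (hd : Dual2 e η) {h : GG 3 t F}
    (hN : Nm h i i) (h1 : (h : EE 3 t F) * h = 1)
    (hc : (h : EE 3 t F) * em i (ro (e 0) (η 2)) = em i (ro (e 0) (η 2)) * h) :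
    Del i (em i (ro (e 0) (η 2))) (h : EE 3 t F) := by
  obtain ⟨b, κ, k1, k2⟩ := exists_eq_of_nm (by norm_num) hN
  have k3 : κ ≠ 0 := by rintro rfl; exact h.ne_zero (by rw [k2, mul_zero])
  have d : ∀ r s, η r ⬝ᵥ e s = if r = s then 1 else 0 := hd
  have b1 : ro (b *ᵥ e 0) (η 2) = ro (e 0) (η 2 ᵥ* b) := by
    rw [k2, mul_assoc, ← k1, ← mul_assoc, ← mul_assoc, ← map_mul, ← map_mul, ← sub_eq_zero, ← sub_mul,
      ← map_sub] at hc
    rw [← mul_ro, ← ro_mul, ← sub_eq_zero]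
    exact (T2 k1 hc).resolve_right k3
  obtain ⟨l, b2⟩ : ∃ l : F, b *ᵥ e 0 = l • e 0 :=
    ⟨_, by simpa [ro_mulVec, d] using congrArg (· *ᵥ e 2) b1⟩
  have b3 : η 2 ᵥ* b = l • η 2 := by
    simpa [vecMul_vecMulVec, b2, d, vecMul_smul] using (congrArg (η 0 ᵥ* ·) b1).symm
  obtain ⟨⟨μ, hμ⟩, -⟩ := sc_of_em_mul (b := b * b) (k1.mul k1) one_ne_zero (by
    rw [one_smul, ← h1, k2, map_mul, mul_assoc, ← mul_assoc (em i b) κ κ, k1 b]
    simp only [← k1 b, mul_assoc, ← mul_assoc κ (em i b) κ])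
  have b4 : μ = l * l := by
    have := congrArg (fun X => η 0 ⬝ᵥ X *ᵥ e 0) hμ
    simpa [← mulVec_mulVec, b2, mulVec_smul, d, smul_mulVec] using this.symm
  obtain ⟨β, rfl⟩ : ∃ β, b = β + l • 1 := ⟨b - l • 1, by simp⟩
  have c1 : β * β = 0 := by
    rw [add_mul, mul_add, mul_add, smul_mul_smul_comm, one_mul, b4, add_assoc, ← add_assoc _ _ (_ • _),
      mul_smul_comm, smul_mul_assoc, mul_one, one_mul, ← two_smul F, h2, zero_smul, zero_add] at hμ
    simpa using hμ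
  have c2 : β *ᵥ e 0 = 0 := by simpa [add_mulVec, smul_mulVec] using b2
  have c3 : η 2 ᵥ* β = 0 := by simpa [vecMul_add, vecMul_smul] using b3
  obtain ⟨s, c4⟩ : ∃ s : F, β *ᵥ e 1 = s • e 0 := by
    have f1 := congrArg (· *ᵥ (β *ᵥ e 1)) hd.sum
    simp only [Fin.sum_univ_three, add_mulVec, ro_mulVec, dotProduct_mulVec (η 2), c3,
      zero_dotProduct, zero_smul, add_zero, one_mulVec] at f1
    have f2 := congrArg (β *ᵥ ·) f1
    simp only [mulVec_add, mulVec_smul, c2, mulVec_mulVec, c1, zero_mulVec, smul_zero, zero_add,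
      smul_eq_zero] at f2
    rcases f2 with f | f
    · exact ⟨_, by rw [← f1, f, zero_smul, add_zero]⟩
    · exact ⟨0, by rw [f, zero_smul]⟩
  have c5 : (h : EE 3 t F) - l • κ = κ * em i β := by
    rw [k2, map_add, map_smul, map_one, add_mul, smul_mul_assoc, one_mul, add_sub_cancel_right, k1]
  refine ⟨l • κ, k1.smul l, by rw [c5, mul_assoc, ← map_mul, mul_ro, c2]; simp, fun Z hZ =>
    ⟨s • (em i (ro (e 2) (η 1)) * κ * Z), ?_⟩⟩
  have c6 : em i (ro (e 2) (η 2)) * Z = 0 := by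
    rw [show ro (e 2) (η 2) = ro (e 2) (η 0) * ro (e 0) (η 2) by simp [ro_mul_ro, d], map_mul,
      mul_assoc, hZ, mul_zero]
  have c7 : β = s • ro (e 0) (η 1) + β * ro (e 2) (η 2) := by
    conv_lhs => rw [← mul_one β, ← hd.sum, Fin.sum_univ_three, mul_add, mul_add, mul_ro, mul_ro, c2, c4]
    simp [ro_smul_left]
  rw [c5, c7, map_add, map_mul, mul_add, add_mul, mul_assoc κ (_ * _), mul_assoc (em i β), c6, map_smul,
    mul_smul_comm, mul_smul_comm, smul_mul_assoc, mul_zero, mul_zero, ← mul_assoc, ← mul_assoc, ← map_mul,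
    ro_mul_ro, d, ← k1]
  simp

theorem sq_one_add (h2 : (2 : F) = 0) (h : X * X = 0) : (1 + X) * (1 + X) = 1 := by
  rw [add_mul, mul_add, mul_add, h, one_mul, one_mul, mul_one, add_zero, add_assoc, ← two_smul F X, h2,
    zero_smul, add_zero]

theorem Fr.del {M : Subgroup (GG k t F)} {x : GG k t F} {u v : Fin k → Fin k → EE k t F} (H : Fr x u v)
    (h2 : (2 : F) = 0) (hx : x ∈ M) {P : EE k t F → Prop} (hΔ : ∀ h ∈ M, (h : EE k t F) * h = 1 →
      (h : EE k t F) * x = x * h → P h) {a b : Fin k} (hab : b ≠ a) {c : F}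
    (hu : In M (1 + c • u a b)) : P ((1 + c • u a b) * (1 + c • v a b)) := by
  obtain ⟨m, hm, e⟩ := hu
  have e1 : (x : EE k t F) * (1 + c • u a b) = (1 + c • v a b) * x := by
    rw [mul_add, add_mul, mul_smul_comm, H.yu, smul_mul_assoc, mul_one, one_mul]
  have e2 : (x : EE k t F) * (1 + c • v a b) = (1 + c • u a b) * x := by
    rw [mul_add, add_mul, mul_smul_comm, H.yv, smul_mul_assoc, mul_one, one_mul]
  have e3 : (1 + c • v a b) * (1 + c • u a b) = (1 + c • u a b) * (1 + c • v a b) := by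
    simp only [mul_add, add_mul, smul_mul_smul_comm, H.vu, mul_one, one_mul]; abel
  have e4 : ((m * (x * m * x⁻¹) : GG k t F) : EE k t F) = (1 + c • u a b) * (1 + c • v a b) := by
    rw [Units.val_mul, ← cj_coe, e, (cj_eq_iff _ _ _).2 e1]
  rw [← e4]
  refine hΔ _ (mul_mem hm (mul_mem (mul_mem hx hm) (inv_mem hx))) ?_ ?_
  · rw [e4, mul_assoc, ← mul_assoc (1 + c • v a b), e3, mul_assoc, ← mul_assoc,
      sq_one_add h2 (by simp [H.uu, hab]), sq_one_add h2 (by simp [H.vv, hab]), one_mul]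
  · rw [e4, ← mul_assoc, e1, mul_assoc _ (x : EE k t F), e2, ← mul_assoc, e3]

universe u

theorem jobRig2 : JobRig2.{u} := by
  intro hP F _ _ k t M h2 hk hS h1 g hg i w φ hR ⟨y, hT, hy⟩
  obtain ⟨hw, hφ, h0, x, hM, hx⟩ := id hR
  have hN : (em i (ro w φ) * em i (ro w φ) : EE k t F) = 0 := by rw [← map_mul, ro_mul_ro, h0]; simp
  have hn : cj g (em i (ro w φ)) * cj g (em i (ro w φ)) = 0 := by rw [← map_mul, hN, map_zero]
  by_cases hall : ∀ j, Nm y j j
  · obtain ⟨j, a, ha⟩ := inA_of_nm (by omega) i.pos hall fun j b c hc e => hP F k t y j b c hc e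
      (by rw [hy, add_sub_cancel_left, hn]) (Or.inr ⟨hk, by
        rw [hy, add_sub_cancel_left]
        exact ((rank_cj _ _).trans (rank_em_ro i hw hφ)).le⟩)
    exact ⟨j, a - 1, by rw [map_sub, map_one, ← ha, hy, add_sub_cancel_left]⟩
  exfalso
  obtain ⟨p, hp⟩ := not_forall.1 hall
  obtain ⟨q, hq⟩ := exists_nm hT p
  have hpq : p ≠ q := by rintro rfl; exact hp hq
  have hyy : y * y = 1 := Units.ext (by rw [Units.val_mul, hy, sq_one_add h2 hn, Units.val_one])
  have hxy : g⁻¹ * y * g⁻¹⁻¹ = x := Units.ext (by rw [← cj_coe, hy, hx, map_add, map_one, cj_inv_cj])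
  have fr : ∀ {e η : Fin k → Fin k → F}, Dual2 e η → ∃ u v, Fr x u v ∧ ∀ a b (c : F),
      In (Gam M) (1 + c • ro (e a) (η b)) → In M (1 + c • u a b) := fun hd =>
    ⟨_, _, hxy ▸ (exists_fr hyy hpq hq hd).conj g⁻¹, fun a b c h => by
      simpa using (h.em_one_add p).cj_one_add (inv_mem hg)⟩
  have dg := fun u v (H : Fr x u v) => H.diag h2 hk i.pos hx (rank_em_ro i hw hφ).le
  obtain rfl : k = 3 := by
    obtain ⟨u, v, H, -⟩ := fr (e := fun a => Pi.single a 1) (η := fun a => Pi.single a 1)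
      fun r s => by simp [Pi.single_apply, eq_comm]
    exact (dg u v H).1
  obtain ⟨e, η, hd, rfl, rfl⟩ := exists_dual hw hφ h0
  have d : ∀ r s, η r ⬝ᵥ e s = if r = s then 1 else 0 := hd
  have hΔ : ∀ h ∈ M, (h : EE 3 t F) * h = 1 → (h : EE 3 t F) * x = x * h →
      Del i (em i (ro (e 0) (η 2))) (h : EE 3 t F) := fun h hh e1 e2 => by
    rw [hx, mul_add, add_mul, mul_one, one_mul, add_right_inj] at e2
    exact del_of_nm h2 hd (h1 h hh i _ _ hR (by
      rw [Maps, ← rg_em_ro i hφ, ← rg_cj, (cj_eq_iff _ _ _).2 e2])) e1 e2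
  rcases hS rfl with ⟨w', φ', c, a1, a2, a3, a4, a5, a6, a7⟩ | a1
  · obtain ⟨e', η', hd', rfl, rfl⟩ := exists_dual a1 a2 a3
    obtain ⟨u, v, H, hu⟩ := fr hd'
    obtain ⟨-, b1, b2, -⟩ := dg u v H
    have b3 := H.del h2 hM hΔ (by decide) (hu 0 2 1 (by simpa using a6))
    have b4 := H.del h2 hM hΔ (by decide) (hu 0 2 c a7)
    have b5 : Del i (em i (ro (e 0) (η 2))) ((c * c - c) • (u 0 2 * v 0 2)) := by
      convert (b4.add_smul b3 (-c)).add_smul Del.one (c - 1) using 1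
      simp only [mul_add, add_mul, smul_mul_smul_comm, one_smul, mul_one, one_mul]
      module
    have b6 : u 0 2 * v 0 2 * ∑ a, u a a * v a a = u 0 2 * v 0 2 := by simp [Finset.mul_sum, H.mul]
    have b7 : (∑ a, u a a * v a a) * (u 0 2 * v 0 2) = u 0 2 * v 0 2 := by simp [Finset.sum_mul, H.mul]
    obtain ⟨Z, hZ⟩ := b5.ker (ro_ne_zero hw hφ)
      (by rw [← b6, smul_mul_assoc, mul_assoc, b1, mul_zero, smul_zero]) b2
    have b8 := congrArg ((∑ a, u a a * v a a) * ·) hZ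
    simp only [smul_mul_assoc, b6, mul_smul_comm, b7, ← mul_assoc _ (em i _), b1, zero_mul,
      smul_eq_zero] at b8
    refine b8.elim (fun h => ?_) (H.ne _ _ _ _)
    rw [← mul_sub_one, mul_eq_zero, sub_eq_zero] at h
    exact h.elim a4 a5
  · obtain ⟨u, v, H, hu⟩ := fr hd
    obtain ⟨-, -, -, π, b2⟩ := dg u v H
    have b3 := H.del h2 hM hΔ (by decide) (hu 0 1 1 (by simpa using a1 _ _ (by simp [d])))
    have b4 := H.del h2 hM hΔ (by decide) (hu 1 2 1 (by simpa using a1 _ _ (by simp [d])))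
    have b5 : Del i (em i (ro (e 0) (η 2))) (u 1 2 * v 0 1 + u 0 1 * v 1 2) := by
      convert (b4.add_smul Del.one (-1)).mul (b3.add_smul Del.one (-1)) using 1
      have f1 : ∀ a b, (1 + (1 : F) • u a b) * (1 + (1 : F) • v a b) + (-1 : F) • (1 : EE 3 t F) =
          u a b * (∑ s, v s s) + (∑ s, u s s) * v a b + u a b * v a b := fun a b => by
        simp only [H.su, H.sv, mul_add, add_mul, one_smul, mul_one, one_mul]; module
      rw [f1, f1]
      simp [Fin.sum_univ_three, mul_add, add_mul, H.mul]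
      exact add_comm _ _
    have b6 : (u 1 2 * v 0 1 + u 0 1 * v 1 2) * ∑ a, u a a * v a a = 0 := by
      simp [Fin.sum_univ_three, mul_add, add_mul, H.mul]
    have b7 := b5.img (ε := ro (e 1) (η 1)) (Z := π * em i (ro (e 1) (η 1)))
      (ro_ne_zero (fun h => by simpa [h] using d 1 1) fun h => by simpa [h] using d 1 1)
      (by simp [ro_mul_ro, d]) (by simp [ro_mul_ro, d]) (by simp [ro_mul_ro, d]) (by
        conv_lhs => rw [b2 (em i (ro (e 1) (η 1))) (by simp [← map_mul, ro_mul_ro, d]), mul_add,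
          ← mul_assoc _ (∑ a, _), b6, zero_mul, add_zero])
    rw [show (em i (ro (e 0) (η 2)) : EE 3 t F) = x - 1 by rw [hx, add_sub_cancel_left]] at b7
    have b8 := congrArg (fun Z => u 1 1 * v 0 0 * (Z * (u 2 2 * v 1 1))) b7
    simp only [mul_assoc _ ((x : EE 3 t F) - 1), sub_mul, H.ymul, one_mul] at b8
    simp [mul_sub, add_mul, mul_add, ← mul_assoc _ _ (x : EE 3 t F), H.mul, H.ne] at b8

end H89.Wr
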