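/- Homogeneous groups: pointwise form of transitivity on `k`-subsets. -/
import Cfsg.Agent.H89.MultiTrans

set_option autoImplicit false

namespace H89

open MulAction
open scoped Pointwise

theorem homog_iff {G α : Type*} [Group G] [MulAction G α] [DecidableEq α] (k : ℕ) :
    IsPretransitive G (Set.powersetCard α k) ↔
      ∀ s t : Finset α, s.card = k → t.card = k → ∃ g : G, g • s = t := by
  constructor
  · intro h s t hs ht
    obtain ⟨g, hg⟩ := h.exists_smul_eq ⟨s, hs⟩ ⟨t, ht⟩
    exact ⟨g, congrArg Subtype.val hg⟩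
  · intro h
    constructor
    rintro ⟨s, hs⟩ ⟨t, ht⟩
    obtain ⟨g, hg⟩ := h s t hs ht
    exact ⟨g, Subtype.ext hg⟩

theorem homog_iff_perm {α : Type*} [DecidableEq α] (G : Subgroup (Equiv.Perm α)) (k : ℕ) :
    IsPretransitive G (Set.powersetCard α k) ↔
      ∀ s t : Finset α, s.card = k → t.card = k → ∃ g : G, g • s = t := homog_iff k

theorem smul_pair_eq {G α : Type*} [Group G] [MulAction G α] [DecidableEq α] {g : G}
    {a b c d : α} (hab : a ≠ b) (h : g • ({a, b} : Finset α) = {c, d}) :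
    (g • a = c ∧ g • b = d) ∨ (g • a = d ∧ g • b = c) := by
  have ha : g • a ∈ ({c, d} : Finset α) := h ▸ Finset.smul_mem_smul_finset (by simp)
  have hb : g • b ∈ ({c, d} : Finset α) := h ▸ Finset.smul_mem_smul_finset (by simp)
  simp only [Finset.mem_insert, Finset.mem_singleton] at ha hb
  rcases ha with ha | ha <;> rcases hb with hb | hb
  · exact absurd (smul_left_cancel g (ha.trans hb.symm)) hab
  · exact Or.inl ⟨ha, hb⟩
  · exact Or.inr ⟨ha, hb⟩
  · exact absurd (smul_left_cancel g (ha.trans hb.symm)) hab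

/-- A 2-homogeneous group of degree at least 3 is primitive. -/
theorem isPreprimitive_of_two_homog {G α : Type*} [Group G] [MulAction G α] [DecidableEq α]
    [Fintype α] (h2 : IsPretransitive G (Set.powersetCard α 2)) (hα : 3 ≤ Fintype.card α) :
    IsPreprimitive G α := by
  rw [homog_iff] at h2
  have key : ∀ r : α → α → Prop, Equivalence r → (∀ (g : G) x y, r x y → r (g • x) (g • y)) →
      (∀ x y, r x y → x = y) ∨ ∀ x y, r x y := by
    intro r hr hinv
    by_cases h1 : ∀ x y, r x y → x = y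
    · exact Or.inl h1
    right
    push Not at h1
    obtain ⟨a, b, hab, hne⟩ := h1
    intro x y
    by_cases hxy : x = y
    · exact hxy ▸ hr.refl x
    obtain ⟨g, hg⟩ := h2 {a, b} {x, y} (Finset.card_pair hne) (Finset.card_pair hxy)
    rcases smul_pair_eq hne hg with ⟨rfl, rfl⟩ | ⟨rfl, rfl⟩
    · exact hinv g _ _ hab
    · exact hr.symm (hinv g _ _ hab)
  have : IsPretransitive G α := by
    rcases key (fun x y => ∃ g : G, g • x = y) ⟨fun x => ⟨1, one_smul _ _⟩,
      fun ⟨g, hg⟩ => ⟨g⁻¹, by rw [← hg, inv_smul_smul]⟩,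
      fun ⟨g, hg⟩ ⟨k, hk⟩ => ⟨k * g, by rw [mul_smul, hg, hk]⟩⟩
      (fun g x y ⟨k, hk⟩ => ⟨g * k * g⁻¹, by rw [mul_smul, mul_smul, inv_smul_smul, hk]⟩) with h | h
    · exfalso
      obtain ⟨a, b, c, hab, hac, hbc⟩ := Fintype.two_lt_card_iff.1 (show 2 < Fintype.card α from hα)
      obtain ⟨g, hg⟩ := h2 {a, b} {a, c} (Finset.card_pair hab) (Finset.card_pair hac)
      rcases smul_pair_eq hab hg with ⟨-, h1⟩ | ⟨h1, -⟩
      · exact hbc (h _ _ ⟨g, h1⟩)
      · exact hac (h _ _ ⟨g, h1⟩)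
    · exact ⟨h⟩
  exact isPreprimitive_of_rel key

end H89
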