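import Cfsg.Agent.H39.PSSpec

/-! PS tower (S0725), slot NUb. -/

set_option autoImplicit false

namespace H89.PSNUb

open Finset H39.PS

theorem pw (L : ℕ) (h : 18 ≤ L) : 3 * (3 * L ^ 2 + 8) ^ 2 ≤ 16 * 2 ^ L := by
  induction L, h using Nat.le_induction with
  | base => norm_num
  | succ L h ih =>
    have h1 : 5 * (3 * (L + 1) ^ 2 + 8) ≤ 7 * (3 * L ^ 2 + 8) := by nlinarith
    have h2 := Nat.pow_le_pow_left h1 2
    rw [mul_pow, mul_pow] at h2
    rw [pow_succ 2 L]
    omega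

theorem desc (n d s : ℕ) (hd : 2 ≤ d) (hn : 0 < n) : ((n - d).descFactorial s : ℝ) ≤
    Real.exp (-(s * (((d : ℝ) - 2) / n))) * ((n - 2).descFactorial s : ℝ) := by
  have n0 : (0 : ℝ) < n := Nat.cast_pos.2 hn
  induction s with
  | zero => simp
  | succ s ih =>
    have k : ((n - d - s : ℕ) : ℝ) ≤ Real.exp (-(((d : ℝ) - 2) / n)) * ((n - 2 - s : ℕ) : ℝ) := by
      by_cases h : n - d - s = 0
      · rw [h, Nat.cast_zero]; positivity
      have e1 : ((n - 2 - s : ℕ) : ℝ) = ((n - d - s : ℕ) : ℝ) + (d - 2) := by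
        have : n - 2 - s + 2 = n - d - s + d := by omega
        have := congrArg (Nat.cast : ℕ → ℝ) this
        push_cast at this
        linarith
      have e2 : ((n - 2 - s : ℕ) : ℝ) ≤ n := Nat.cast_le.2 (by omega)
      have e3 : (0 : ℝ) ≤ d - 2 := by
        have : (2 : ℝ) ≤ d := by exact_mod_cast hd
        linarith
      have e4 := Real.add_one_le_exp (-(((d : ℝ) - 2) / n))
      refine le_trans ?_ (mul_le_mul_of_nonneg_right e4 (Nat.cast_nonneg _))
      have e5 : ((d : ℝ) - 2) / n * ((n - 2 - s : ℕ) : ℝ) ≤ d - 2 := by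
        rw [div_mul_eq_mul_div, div_le_iff₀ n0]
        exact mul_le_mul_of_nonneg_left e2 e3
      linarith
    rw [Nat.descFactorial_succ, Nat.descFactorial_succ, Nat.cast_mul, Nat.cast_mul]
    refine (mul_le_mul k ih (Nat.cast_nonneg _) (by positivity)).trans (le_of_eq ?_)
    rw [mul_mul_mul_comm, ← Real.exp_add]
    congr 2
    push_cast
    ring

theorem qu (n d s : ℕ) (hd : 2 ≤ d) (hn : 0 < n) :
    Qu n d s ≤ Real.exp (-(s * (((d : ℝ) - 2) / n))) :=
  div_le_of_le_mul₀ (Nat.cast_nonneg _) (Real.exp_pos _).le (desc n d s hd hn)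

theorem jobNUb : NUb := by
  intro n hn d hd
  have n0 : 0 < n := lt_of_lt_of_le (by norm_num) hn
  obtain ⟨L, h18, hL1, hL2⟩ : ∃ L, 18 ≤ L ∧ n < 2 ^ L ∧ 2 ^ L ≤ 2 * n := by
    refine ⟨Nat.log 2 n + 1, Nat.succ_le_succ (Nat.le_log_of_pow_le (by norm_num) hn),
      Nat.lt_pow_succ_log_self (by norm_num) n, ?_⟩
    rw [pow_succ']
    exact Nat.mul_le_mul_left _ (Nat.pow_log_le_self 2 n0.ne')
  have p := pw L h18
  have d1 : 3 * L ^ 2 + 8 ≤ 4 * d := by
    by_contra! h
    have := Nat.pow_lt_pow_left h (two_ne_zero)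
    rw [mul_pow] at this
    omega
  have n15 : 15 * L ≤ n := by
    have a : 54 * L ≤ 3 * L ^ 2 + 8 := by nlinarith
    have b : 10 ≤ 3 * L ^ 2 + 8 := by omega
    have := Nat.mul_le_mul a b
    rw [← pow_two] at this
    omega
  have d2 : 2 ≤ d := by omega
  have s1 : L * (n / L) ≤ n := Nat.mul_div_le n L
  have s2 : n < L * (n / L) + L := Nat.lt_mul_div_succ n (by omega)
  generalize n / L = s0 at s1 s2
  have nr : (0 : ℝ) < n := Nat.cast_pos.2 n0
  have c0 : (0 : ℝ) ≤ ((d : ℝ) - 2) / n := by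
    have : (2 : ℝ) ≤ d := by exact_mod_cast d2
    exact div_nonneg (by linarith) nr.le
  have key : (n : ℝ) ≤ Real.exp (s0 * (((d : ℝ) - 2) / n)) := by
    have a : (n : ℝ) ≤ 2 ^ L := by exact_mod_cast hL1.le
    refine a.trans ?_
    rw [← Real.exp_log (show (0 : ℝ) < 2 ^ L by positivity), Real.exp_le_exp, Real.log_pow,
      ← mul_div_assoc, le_div_iff₀ nr]
    have l2 := Real.log_two_lt_d9
    have b1 : (3 : ℝ) * L ^ 2 + 8 ≤ 4 * d := by exact_mod_cast d1
    have b2 : (15 : ℝ) * L ≤ n := by exact_mod_cast n15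
    have b3 : (n : ℝ) ≤ L * s0 + L := by exact_mod_cast s2.le
    have b4 : (18 : ℝ) ≤ L := by exact_mod_cast h18
    have b5 : 14 / 15 * (n : ℝ) ≤ L * s0 := by linarith
    have b6 : 3 / 4 * (L : ℝ) ^ 2 ≤ d - 2 := by linarith
    have b7 := mul_le_mul b5 b6 (by positivity) (by positivity)
    have b8 : (L : ℝ) * Real.log 2 * n ≤ L * (7 / 10) * n := by gcongr; linarith
    refine b8.trans (le_of_mul_le_mul_left ?_ (show (0 : ℝ) < L by linarith))
    linarith
  have fac : ∀ s ∈ range n, 1 + ((n - 1 - s : ℕ) : ℝ) * Qu n d s ≤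
      2 * if s < s0 then 2 ^ L else 1 := fun s _ => by
    have a : ((n - 1 - s : ℕ) : ℝ) ≤ n := Nat.cast_le.2 (by omega)
    have q := qu n d s d2 n0
    have q0 : 0 ≤ Qu n d s := div_nonneg (Nat.cast_nonneg _) (Nat.cast_nonneg _)
    have a' := mul_le_mul a q q0 nr.le
    split_ifs with h
    · have b : Real.exp (-(s * (((d : ℝ) - 2) / n))) ≤ 1 :=
        Real.exp_le_one_iff.2 (neg_nonpos.2 (by positivity))
      have c : (n : ℝ) ≤ 2 ^ L := by exact_mod_cast hL1.le
      have c1 : (1 : ℝ) ≤ 2 ^ L := one_le_pow₀ (by norm_num)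
      have := mul_le_mul_of_nonneg_left b nr.le
      linarith
    · have b : (s0 : ℝ) ≤ s := Nat.cast_le.2 (by omega)
      have c := key.trans (Real.exp_le_exp.2 (mul_le_mul_of_nonneg_right b c0))
      rw [Real.exp_neg, ← div_eq_mul_inv] at a'
      have := (div_le_one (Real.exp_pos _)).2 c
      linarith
  refine (prod_le_prod (fun s _ => add_nonneg zero_le_one (mul_nonneg (Nat.cast_nonneg _)
    (div_nonneg (Nat.cast_nonneg _) (Nat.cast_nonneg _)))) fac).trans ?_
  rw [prod_mul_distrib, prod_const, card_range, prod_ite, prod_const_one, mul_one, prod_const,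
    show (4 : ℝ) = 2 * 2 by norm_num, mul_pow, ← pow_mul]
  refine mul_le_mul_of_nonneg_left (pow_le_pow_right₀ (by norm_num) ?_) (by positivity)
  refine le_trans (Nat.mul_le_mul_left _ ?_) s1
  exact (card_le_card (t := range s0) fun s hs => mem_range.2 (mem_filter.1 hs).2).trans
    (card_range s0).le

end H89.PSNUb
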